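import Mathlib
import Cfsg.Agent.Lib.Helper50.FOT.Defs

/-!
# FOT (S3999) package [HALLN]
-/

set_option autoImplicit false
open scoped Pointwise

namespace Cfsg.Agent.Lib.Helper93.FOT

open Cfsg.Agent.Lib.Helper50.FOT

universe u

theorem card_sup_dvd {G : Type u} [Group G] (H K : Subgroup G) [K.Normal] :
    Nat.card (H ⊔ K : Subgroup G) ∣ Nat.card H * Nat.card K := by
  have h1 : (⊥ : Subgroup G).relIndex K * K.relIndex (H ⊔ K) =
      (⊥ : Subgroup G).relIndex (H ⊔ K) :=
    Subgroup.relIndex_mul_relIndex _ _ _ bot_le le_sup_right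
  rw [Subgroup.relIndex_bot_left, Subgroup.relIndex_bot_left, Subgroup.relIndex_sup_right] at h1
  rw [← h1, mul_comm]
  exact Nat.mul_dvd_mul_right (Subgroup.relIndex_dvd_card _ _) _

theorem normal_sylow_of_count {G : Type u} [Group G] [Finite G] (n h : ℕ)
    (hG : Nat.card G = n * h) (hcop : n.Coprime h) (p : ℕ) (hp : p.Prime) (hpn : p ∣ n)
    (hcnt : Nat.card {g : G // orderOf g ∣ p ^ n.factorization p} = p ^ n.factorization p) :
    ∃ Q : Subgroup G, Q.Normal ∧ Nat.card Q = p ^ n.factorization p := by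
  have : Fact p.Prime := ⟨hp⟩
  have hn0 : n ≠ 0 := by
    rintro rfl
    rw [zero_mul] at hG
    exact Nat.card_pos.ne' hG
  have hh0 : h ≠ 0 := by
    rintro rfl
    rw [mul_zero] at hG
    exact Nat.card_pos.ne' hG
  obtain ⟨P⟩ : Nonempty (Sylow p G) := inferInstance
  have hph : ¬ p ∣ h := fun hph =>
    hp.one_lt.ne' (Nat.dvd_one.mp (hcop ▸ Nat.dvd_gcd hpn hph))
  have hPc : Nat.card P = p ^ n.factorization p := by
    rw [Sylow.card_eq_multiplicity, hG, Nat.factorization_mul hn0 hh0]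
    simp [Nat.factorization_eq_zero_of_not_dvd hph]
  have hmem : ∀ g : G, g ∈ (P : Subgroup G) ↔ orderOf g ∣ p ^ n.factorization p := by
    let f : ↥(P : Subgroup G) → {g : G // orderOf g ∣ p ^ n.factorization p} := fun x =>
      ⟨x.1, by
        rw [← hPc, Subgroup.orderOf_coe]
        exact orderOf_dvd_natCard x⟩
    have hf : Function.Injective f := by
      intro x y hxy
      have h1 : (f x).1 = (f y).1 := congrArg Subtype.val hxy
      exact Subtype.ext h1
    have hb := hf.bijective_of_nat_card_le (by rw [hcnt, hPc])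
    intro g
    constructor
    · intro hg; exact (f ⟨g, hg⟩).2
    · intro hg
      obtain ⟨x, hx⟩ := hb.2 ⟨g, hg⟩
      have : x.1 = g := congrArg Subtype.val hx
      rw [← this]; exact x.2
  refine ⟨P, ⟨fun g hg x => ?_⟩, hPc⟩
  rw [hmem] at hg ⊢
  have : orderOf (x * g * x⁻¹) = orderOf g := by
    have := (MulAut.conj x).orderOf_eq g
    simpa [MulAut.conj_apply] using this
  rw [this]; exact hg

/-- [HALLN] -/
theorem pkgHallN : PkgHallN.{u} := by
  intro G _ _ n h hG hcop hcnt
  classical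
  have hn0 : n ≠ 0 := by
    rintro rfl
    rw [zero_mul] at hG
    exact Nat.card_pos.ne' hG
  have key : ∀ p : ℕ, ∃ Q : Subgroup G, Q.Normal ∧
      (p.Prime → p ∣ n → Nat.card Q = p ^ n.factorization p) := by
    intro p
    by_cases hp : p.Prime ∧ p ∣ n
    · obtain ⟨Q, hQ1, hQ2⟩ := normal_sylow_of_count n h hG hcop p hp.1 hp.2 (hcnt p hp.1 hp.2)
      exact ⟨Q, hQ1, fun _ _ => hQ2⟩
    · exact ⟨⊥, inferInstance, fun h1 h2 => absurd ⟨h1, h2⟩ hp⟩
  choose Q hQn hQc using key
  have ind : ∀ S : Finset ℕ, (∀ p ∈ S, p.Prime ∧ p ∣ n) →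
      (⨆ p ∈ S, Q p).Normal ∧
        Nat.card (⨆ p ∈ S, Q p : Subgroup G) ∣ ∏ p ∈ S, p ^ n.factorization p := by
    intro S
    induction S using Finset.induction_on with
    | empty =>
      intro _
      simp only [Finset.notMem_empty, iSup_false, iSup_bot, Finset.prod_empty]
      exact ⟨inferInstance, by simp⟩
    | insert q S hq ih =>
      intro hS
      obtain ⟨ihN, ihc⟩ := ih (fun p hp => hS p (Finset.mem_insert_of_mem hp))
      rw [Finset.iSup_insert, Finset.prod_insert hq]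
      have := ihN
      have := hQn q
      refine ⟨inferInstance, ?_⟩
      refine (card_sup_dvd _ _).trans ?_
      rw [hQc q (hS q (Finset.mem_insert_self _ _)).1 (hS q (Finset.mem_insert_self _ _)).2]
      exact Nat.mul_dvd_mul_left _ ihc
  obtain ⟨hNn, hNc⟩ := ind n.primeFactors
    (fun p hp => ⟨Nat.prime_of_mem_primeFactors hp, Nat.dvd_of_mem_primeFactors hp⟩)
  refine ⟨⨆ p ∈ n.primeFactors, Q p, hNn, ?_⟩
  have hprod : ∏ p ∈ n.primeFactors, p ^ n.factorization p = n := by
    have := Nat.prod_factorization_pow_eq_self hn0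
    rwa [Finsupp.prod, Nat.support_factorization] at this
  rw [hprod] at hNc
  apply Nat.dvd_antisymm hNc
  have hN0 : Nat.card (⨆ p ∈ n.primeFactors, Q p : Subgroup G) ≠ 0 := Nat.card_pos.ne'
  rw [← Nat.factorization_prime_le_iff_dvd hn0 hN0]
  intro p hp
  by_cases hpn : p ∣ n
  · rw [← hp.pow_dvd_iff_le_factorization hN0, ← hQc p hp hpn]
    exact Subgroup.card_dvd_of_le
      (le_iSup₂_of_le p (Nat.mem_primeFactors.mpr ⟨hp, hpn, hn0⟩) le_rfl)
  · rw [Nat.factorization_eq_zero_of_not_dvd hpn]; exact Nat.zero_le _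

end Cfsg.Agent.Lib.Helper93.FOT
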